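import Cfsg.Agent.H795.Core
import Cfsg.Agent.ChevalleyStructure.RootComb

/-!
# The coroots as functionals on the root lattice (helper687, for S4791 + S4927)

* `psi D l r` : the functional `x ↦ ⟨x, r^∨⟩`, `r < D.nroots` a root;
* `psi_simple` : `⟨s_i x, (s_i r)^∨⟩ = ⟨x, r^∨⟩`; `psi_perm` : the Weyl group permutes the functionals.
-/

set_option autoImplicit false

namespace Cfsg.Agent.H687.XR

open CoxeterSystem Cfsg Cfsg.Lie Cfsg.Lie.ChevalleyDatum
open Cfsg.Agent.ChevalleyStructure Cfsg.Agent.ChevalleyStructure.CoxeterGeom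
  Cfsg.Agent.ChevalleyStructure.CoxeterGeomTypes
open Cfsg.Agent.Tits.Roots Cfsg.Agent.Nodes Cfsg.Agent.Nodes.Reps Cfsg.Agent.Nodes.RGDChev
open Cfsg.Agent.ChevalleyStructure.RootCombGood

/-- the coroot `r` as a functional on the root lattice -/
def psi (D : ChevalleyDatum) (l r : ℕ) : (Fin l → ℤ) →+ ℤ where
  toFun x := ∑ k : Fin l, co D r k * pairing (cartanOf D l) k x
  map_zero' := by simp [pairing]
  map_add' x y := by
    rw [← Finset.sum_add_distrib]
    refine Finset.sum_congr rfl fun k _ => ?_
    rw [pairing_add, mul_add]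

theorem psi_apply (D : ChevalleyDatum) (l r : ℕ) (x : Fin l → ℤ) :
    psi D l r x = ∑ k : Fin l, co D r k * pairing (cartanOf D l) k x := rfl

section

variable {D : ChevalleyDatum} {l : ℕ} {M : CoxeterMatrix (Fin l)} (hp : IsType D l M)

include hp in
theorem good : Good D := RootComb.good_of_mem hp.inList

include hp in
theorem psi_sr (r : ℕ) (i : Fin l) : psi D l r (sr i) = car D r (D.simple i) := by
  rw [psi_apply, car, hp.rank_eq, ← Fin.sum_univ_eq_sum_range (fun k => co D r k * D.cartan k (D.simple i))]
  refine Finset.sum_congr rfl fun k _ => ?_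
  congr 1
  unfold pairing
  rw [Finset.sum_eq_single i (fun b _ hb => by rw [sr_ne hb, mul_zero]) (by simp), sr_self, mul_one, cartanOf_def]

include hp in
/-- simple reflections -/
theorem psi_simple {W : Type*} [Group W] (cs : CoxeterSystem M W) (i : Fin l) {r : ℕ} (hr : r < D.nroots)
    (x : Fin l → ℤ) : psi D l (D.reflectRoot i r) (rep cs hp.isCartan (cs.simple i) x) = psi D l r x := by
  have G := good hp
  have hi := lt_rank hp i
  have h2 : cartanOf D l i i = 2 := G.cartan_simple hi
  have e1 : psi D l (D.reflectRoot i r) (rep cs hp.isCartan (cs.simple i) x) =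
      psi D l r (rep cs hp.isCartan (cs.simple i) x) -
        car D r (D.simple i) * pairing (cartanOf D l) i (rep cs hp.isCartan (cs.simple i) x) := by
    rw [psi_apply, psi_apply]
    have h3 : ∀ k : Fin l, co D (D.reflectRoot i r) k * pairing (cartanOf D l) k (rep cs hp.isCartan (cs.simple i) x) =
        co D r k * pairing (cartanOf D l) k (rep cs hp.isCartan (cs.simple i) x) -
          (if k = i then car D r (D.simple i) * pairing (cartanOf D l) i (rep cs hp.isCartan (cs.simple i) x) else 0) := by
      intro k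
      rw [G.co_reflect hi hr (lt_rank hp k)]
      by_cases hki : k = i
      · subst hki
        rw [if_pos rfl, if_pos rfl]
        ring
      · rw [if_neg hki, if_neg (fun h => hki (Fin.ext h))]
        ring
    rw [Finset.sum_congr rfl fun k _ => h3 k, Finset.sum_sub_distrib, Finset.sum_ite_eq', if_pos (Finset.mem_univ _)]
  have e2 : pairing (cartanOf D l) i (rep cs hp.isCartan (cs.simple i) x) = -pairing (cartanOf D l) i x := by
    rw [rep_simple_eq]
    have h3 : ∀ c : ℤ, pairing (cartanOf D l) i (x - c • sr i) = pairing (cartanOf D l) i x - c * 2 := by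
      intro c
      have h4 : pairing (cartanOf D l) i (sr i) = 2 := by
        unfold pairing
        rw [Finset.sum_eq_single i (fun b _ hb => by rw [sr_ne hb, mul_zero]) (by simp), sr_self, mul_one, h2]
      rw [sub_eq_add_neg, ← neg_smul, pairing_add, pairing_smul, h4]
      ring
    rw [h3]
    ring
  have e3 : psi D l r (rep cs hp.isCartan (cs.simple i) x) =
      psi D l r x - pairing (cartanOf D l) i x * car D r (D.simple i) := by
    rw [rep_simple_eq, map_sub, map_zsmul, psi_sr hp, smul_eq_mul]
  rw [e1, e2, e3]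
  ring

include hp in
/-- **the Weyl group permutes the coroots** -/
theorem psi_perm {W : Type*} [Group W] (cs : CoxeterSystem M W) (w : W) :
    ∃ π : Equiv.Perm (Fin D.nroots), ∀ (r : Fin D.nroots) (x : Fin l → ℤ),
      psi D l (π r : Fin D.nroots) (rep cs hp.isCartan w x) = psi D l r x := by
  have G := good hp
  obtain ⟨ω, rfl⟩ := cs.wordProd_surjective w
  induction ω with
  | nil =>
    refine ⟨1, fun r x => ?_⟩
    rw [wordProd_nil, map_one, Module.End.one_apply]
    rfl
  | cons i ω ih =>
    obtain ⟨π, hπ⟩ := ih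
    let s : Equiv.Perm (Fin D.nroots) :=
      { toFun := fun r => ⟨D.reflectRoot i r, G.reflect_lt (lt_rank hp i) r.2⟩
        invFun := fun r => ⟨D.reflectRoot i r, G.reflect_lt (lt_rank hp i) r.2⟩
        left_inv := fun r => Fin.ext (G.reflect_reflect (lt_rank hp i) r.2)
        right_inv := fun r => Fin.ext (G.reflect_reflect (lt_rank hp i) r.2) }
    refine ⟨s * π, fun r x => ?_⟩
    rw [wordProd_cons, rep_mul_apply]
    refine (psi_simple hp cs i (π r).2 (rep cs hp.isCartan (cs.wordProd ω) x)).trans (hπ r x)

end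

end Cfsg.Agent.H687.XR
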